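import Mathlib
import Cfsg.Prelude.Def_Characters
import Cfsg.Prelude.Def_Blocks

/-!
# S4427 team project: package statements

Frobenius' conjecture for three primes (Brauer): a group of order `p^a q^b r^c` with exactly
`q^b r^c` elements of order prime to `p` has a normal `p`-complement.

Notation of the paper proof (see the team note, topic `S4427`): `ZG = MonoidAlgebra ℤ G`,
`ev φ T = ∑_g T_g φ(g)` the linear extension of a function `φ : G → ℂ`,
`subgroupSum H = ∑_{h ∈ H} h ∈ ZG`.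
-/

set_option autoImplicit false

namespace Cfsg.Agent.Lib.Helper44.Frob3

universe u

/-- Linear extension of `φ : G → ℂ` to the integral group algebra. -/
noncomputable def ev {G : Type u} [Group G] (φ : G → ℂ) (T : MonoidAlgebra ℤ G) : ℂ :=
  Finsupp.linearCombination ℤ φ T.coeff

/-- The sum of the elements of a subgroup, in the integral group algebra. -/
noncomputable def subgroupSum {G : Type u} [Group G] (H : Subgroup G) : MonoidAlgebra ℤ G :=
  ∑ᶠ h : H, MonoidAlgebra.of ℤ G (h : G)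

/-- **[W] words.** Among the words of length `m` (with `p^j ∣ m`) in the letters `σ i`, the number of
those with `p`-singular product is divisible by `p^(j+1-a)`, `p^a` the `p`-part of `|G|`
(rotate the word: a word fixed by a rotation subgroup of order `p^a` is a `p^a`-th power). -/
def PkgWords : Prop :=
  ∀ (G : Type u) [Group G] [Finite G] (p : ℕ), p.Prime →
  ∀ (ι : Type u) [Fintype ι] (σ : ι → G) (j m : ℕ), p ^ j ∣ m →
    p ^ (j + 1 - (Nat.card G).factorization p) ∣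
      Nat.card {f : Fin m → ι // p ∣ orderOf (List.ofFn fun i => σ (f i)).prod}

/-- **[X] expansion** of a power of a sum of group elements as a sum over words. -/
def PkgExpand : Prop :=
  ∀ (G : Type u) [Group G] (ι : Type u) [Fintype ι] (σ : ι → G) (m : ℕ),
    (∑ i : ι, MonoidAlgebra.of ℤ G (σ i)) ^ m =
      ∑ f : Fin m → ι, MonoidAlgebra.of ℤ G ((List.ofFn fun i => σ (f i)).prod)

/-- **[I] idempotent powers modulo `p^J`.** For `T ∈ ZG` and an integer `c` prime to `p`, some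
power of `T / c` is idempotent modulo `p^J`, and so are all its powers. -/
def PkgIdem : Prop :=
  ∀ (G : Type u) [Group G] [Finite G] (p : ℕ), p.Prime →
  ∀ (T : MonoidAlgebra ℤ G) (c : ℤ), IsCoprime c (p : ℤ) → ∀ J : ℕ,
    ∃ k : ℕ, 0 < k ∧ ∀ t : ℕ, 0 < t → ∃ D : MonoidAlgebra ℤ G,
      T ^ (k * t) * T ^ (k * t) - c ^ (k * t) • T ^ (k * t) = ((p : ℤ) ^ J) • D

/-- **[T] trace congruence.** A complex matrix `W`, integral up to the denominator `c` prime to
`p`, which is idempotent modulo `p^J` (`W² - W = p^J E`, `E` integral up to `c²`), has trace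
congruent modulo `p^J` (in the local ring at `M`) to a natural number `u ≤ n`. -/
def PkgTrace : Prop :=
  ∀ (p : ℕ) (M : Ideal Cfsg.AlgInt), Cfsg.IsPModular p M →
  ∀ (n : ℕ) (W E : Matrix (Fin n) (Fin n) ℂ) (c J : ℕ), ¬ p ∣ c → 1 ≤ J →
    IsIntegral ℤ ((c : ℂ) • W) → IsIntegral ℤ (((c : ℂ) ^ 2) • E) →
    W * W - W = ((p : ℂ) ^ J) • E →
    ∃ u : ℕ, u ≤ n ∧ Cfsg.MemLocalRing M ((W.trace - (u : ℂ)) / (p : ℂ) ^ J)

/-- **[T0]** the trace of an idempotent complex matrix is a natural number (its rank). -/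
def PkgTrace0 : Prop :=
  ∀ (n : ℕ) (W : Matrix (Fin n) (Fin n) ℂ), W * W = W → ∃ u : ℕ, u ≤ n ∧ W.trace = (u : ℂ)

/-- **[R] matrix form of an irreducible character** on the integral group algebra. -/
def PkgRep : Prop :=
  ∀ (G : Type u) [Group G] [Finite G] (χ : Cfsg.IrrCharacter G),
    ∃ (n : ℕ) (Φ : MonoidAlgebra ℤ G →+* Matrix (Fin n) (Fin n) ℂ),
      (∀ T, IsIntegral ℤ (Φ T)) ∧ (∀ T, (Φ T).trace = ev (χ : G → ℂ) T)

/-- **[A] algebra of `ev` and `subgroupSum`.** -/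
def PkgAlg : Prop :=
  ∀ (G : Type u) [Group G] [Finite G],
    (∀ (φ : G → ℂ) (S T : MonoidAlgebra ℤ G), ev φ (S + T) = ev φ S + ev φ T) ∧
    (∀ (φ : G → ℂ) (z : ℤ) (T : MonoidAlgebra ℤ G), ev φ (z • T) = (z : ℂ) * ev φ T) ∧
    (∀ (φ : G → ℂ) (g : G), ev φ (MonoidAlgebra.of ℤ G g) = φ g) ∧
    (∀ (φ : G → ℂ), (∀ g h : G, φ (g * h) = φ (h * g)) →
      ∀ S T : MonoidAlgebra ℤ G, ev φ (S * T) = ev φ (T * S)) ∧
    (∀ H : Subgroup G, subgroupSum H * subgroupSum H = (Nat.card H : ℤ) • subgroupSum H) ∧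
    (∀ H K : Subgroup G, subgroupSum H * subgroupSum K * subgroupSum H =
      ∑ᶠ i : H × K × H, MonoidAlgebra.of ℤ G ((i.1 : G) * (i.2.1 : G) * (i.2.2 : G))) ∧
    (∀ (φ : G → ℂ) (H : Subgroup G), ev φ (subgroupSum H) = ∑ᶠ h : H, φ (h : G))

/-- **[O] orthogonality for two subgroups of coprime orders.** -/
def PkgOrth : Prop :=
  ∀ (G : Type u) [Group G] [Finite G] (Q R : Subgroup G),
    (Nat.card Q).Coprime (Nat.card R) →
    ∑ᶠ χ : Cfsg.IrrCharacter G,
      ev (χ : G → ℂ) (subgroupSum Q) * ev (χ : G → ℂ) (subgroupSum R) = (Nat.card G : ℂ)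

/-- **[P] the generalized character `p^a · 1_{p-regular}`** and its norm under the hypothesis. -/
def PkgPsi : Prop :=
  ∀ (G : Type u) [Group G] [Finite G] (p : ℕ), p.Prime →
    Nat.card {g : G // ¬ p ∣ orderOf g} * p ^ (Nat.card G).factorization p = Nat.card G →
    ∃ n : Cfsg.IrrCharacter G → ℤ,
      (∀ x : G, ∑ᶠ χ : Cfsg.IrrCharacter G, (n χ : ℂ) * (χ : G → ℂ) x =
          if p ∣ orderOf x then 0 else ((p ^ (Nat.card G).factorization p : ℕ) : ℂ)) ∧
      ∑ᶠ χ : Cfsg.IrrCharacter G, n χ ^ 2 = ((p ^ (Nat.card G).factorization p : ℕ) : ℤ)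

/-- **[F] finish**: if `c · 1_{p-regular}` (`c ≠ 0`) is a non-negative integer combination of
irreducible characters, the `p`-regular elements form a normal subgroup. -/
def PkgFinish : Prop :=
  ∀ (G : Type u) [Group G] [Finite G] (p : ℕ), p.Prime →
  ∀ (n : Cfsg.IrrCharacter G → ℤ) (c : ℂ), c ≠ 0 → (∀ χ, 0 ≤ n χ) →
    (∀ x : G, ∑ᶠ χ : Cfsg.IrrCharacter G, (n χ : ℂ) * (χ : G → ℂ) x =
        if p ∣ orderOf x then 0 else c) →
    ∃ N : Subgroup G, N.Normal ∧ ∀ g : G, g ∈ N ↔ ¬ p ∣ orderOf g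

end Cfsg.Agent.Lib.Helper44.Frob3
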