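import Mathlib
import Cfsg.Agent.Lib.Helper44.Frob3.Defs

/-!
# S4427 assembly, part 2: consequences of the algebra package
-/

set_option autoImplicit false

namespace Cfsg.Agent.Lib.Helper44.Frob3

universe u

theorem mul_pow_shift {A : Type*} [Monoid A] (a b : A) (k : ℕ) :
    (a * b) ^ (k + 1) = a * (b * a) ^ k * b := by
  induction k with
  | zero => simp
  | succ k ih =>
    rw [pow_succ, ih, pow_succ]
    simp only [mul_assoc]

theorem ev_zero (hA : PkgAlg.{u}) {G : Type u} [Group G] [Finite G] (φ : G → ℂ) :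
    ev φ (0 : MonoidAlgebra ℤ G) = 0 := by
  obtain ⟨-, h2, -, -, -, -, -⟩ := hA G
  have := h2 φ 0 0
  simpa using this

theorem ev_sum (hA : PkgAlg.{u}) {G : Type u} [Group G] [Finite G] (φ : G → ℂ)
    {κ : Type*} (s : Finset κ) (T : κ → MonoidAlgebra ℤ G) :
    ev φ (∑ i ∈ s, T i) = ∑ i ∈ s, ev φ (T i) := by
  classical
  obtain ⟨h1, -, -, -, -, -, -⟩ := hA G
  induction s using Finset.induction_on with
  | empty => simp [ev_zero hA]
  | insert a s ha ih => rw [Finset.sum_insert ha, Finset.sum_insert ha, h1, ih]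

/-- The trace identity: `|K|^m ev((S_H S_K S_H)^m) = |H|^m ev((S_K S_H S_K)^m)` for class
functions. -/
theorem ev_swap (hA : PkgAlg.{u}) {G : Type u} [Group G] [Finite G] (φ : G → ℂ)
    (hφ : ∀ g h : G, φ (g * h) = φ (h * g)) (H K : Subgroup G) (m : ℕ) (hm : 0 < m) :
    ((Nat.card K : ℂ)) ^ m * ev φ ((subgroupSum H * subgroupSum K * subgroupSum H) ^ m) =
      ((Nat.card H : ℂ)) ^ m * ev φ ((subgroupSum K * subgroupSum H * subgroupSum K) ^ m) := by
  obtain ⟨-, h2, -, h4, h5, -, -⟩ := hA G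
  obtain ⟨k, rfl⟩ : ∃ k, m = k + 1 := ⟨m - 1, by omega⟩
  have e1 : ((subgroupSum H * subgroupSum K) * (subgroupSum K * subgroupSum H)) =
      (Nat.card K : ℤ) • (subgroupSum H * subgroupSum K * subgroupSum H) := by
    rw [mul_assoc, ← mul_assoc (subgroupSum K), h5 K, smul_mul_assoc, mul_smul_comm, mul_assoc]
  have e2 : ((subgroupSum K * subgroupSum H) * (subgroupSum H * subgroupSum K)) =
      (Nat.card H : ℤ) • (subgroupSum K * subgroupSum H * subgroupSum K) := by
    rw [mul_assoc, ← mul_assoc (subgroupSum H), h5 H, smul_mul_assoc, mul_smul_comm, mul_assoc]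
  have e3 : ev φ (((subgroupSum H * subgroupSum K) * (subgroupSum K * subgroupSum H)) ^ (k + 1)) =
      ev φ (((subgroupSum K * subgroupSum H) * (subgroupSum H * subgroupSum K)) ^ (k + 1)) := by
    rw [mul_pow_shift, mul_assoc, h4 φ hφ, pow_succ, mul_assoc]
  rw [e1, e2, smul_pow, smul_pow, h2, h2] at e3
  push_cast at e3
  exact e3

end Cfsg.Agent.Lib.Helper44.Frob3
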