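import Mathlib
import Cfsg.Agent.Lib.Helper44.Frob3.Defs
import Cfsg.Agent.Lib.Helper16.LocalRing

/-!
# S4427 assembly, part 1: the per-character "side" lemma
-/

set_option autoImplicit false

namespace Cfsg.Agent.Lib.Helper44.Frob3

universe u

open Cfsg Cfsg.Agent.Lib.Helper16

/-- `S_H * T^m = |H| • T^m` and `T^m * S_H = |H| • T^m` for `T = S_H S_K S_H`, `m ≥ 1`. -/
theorem subgroupSum_mul_pow (hA : PkgAlg.{u}) {G : Type u} [Group G] [Finite G]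
    (H K : Subgroup G) (m : ℕ) (hm : 0 < m) :
    subgroupSum H * (subgroupSum H * subgroupSum K * subgroupSum H) ^ m =
        (Nat.card H : ℤ) • (subgroupSum H * subgroupSum K * subgroupSum H) ^ m ∧
      (subgroupSum H * subgroupSum K * subgroupSum H) ^ m * subgroupSum H =
        (Nat.card H : ℤ) • (subgroupSum H * subgroupSum K * subgroupSum H) ^ m := by
  obtain ⟨-, -, -, -, h5, -, -⟩ := hA G
  obtain ⟨k, rfl⟩ : ∃ k, m = k + 1 := ⟨m - 1, by omega⟩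
  constructor
  · rw [pow_succ', ← mul_assoc, ← mul_assoc, ← mul_assoc, h5 H, smul_mul_assoc, smul_mul_assoc,
      smul_mul_assoc]
  · rw [pow_succ, mul_assoc, mul_assoc _ (subgroupSum H) (subgroupSum H), h5 H, mul_smul_comm,
      mul_smul_comm]

/-- complex scalar action of an integer cast on a matrix image -/
theorem map_zsmul_cast {G : Type u} [Group G] {n : ℕ}
    (Φ : MonoidAlgebra ℤ G →+* Matrix (Fin n) (Fin n) ℂ) (z : ℤ) (T : MonoidAlgebra ℤ G) :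
    Φ (z • T) = (z : ℂ) • Φ T := by
  rw [map_zsmul, Int.cast_smul_eq_zsmul]

/-- The per-character lemma. -/
theorem side (hT : PkgTrace) (hT0 : PkgTrace0) (hA : PkgAlg.{u}) {G : Type u} [Group G] [Finite G]
    {p : ℕ} {M : Ideal Cfsg.AlgInt} (hM : Cfsg.IsPModular p M) (H K : Subgroup G)
    (hH : ¬ p ∣ Nat.card H) (hK : ¬ p ∣ Nat.card K) (J m : ℕ) (hJ : 1 ≤ J) (hm : 0 < m)
    (D : MonoidAlgebra ℤ G)
    (hD : (subgroupSum H * subgroupSum K * subgroupSum H) ^ m *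
          (subgroupSum H * subgroupSum K * subgroupSum H) ^ m -
        ((Nat.card H ^ 2 * Nat.card K : ℕ) : ℤ) ^ m •
          (subgroupSum H * subgroupSum K * subgroupSum H) ^ m = ((p : ℤ) ^ J) • D)
    (n : ℕ) (Φ : MonoidAlgebra ℤ G →+* Matrix (Fin n) (Fin n) ℂ) (hΦ : ∀ T, IsIntegral ℤ (Φ T)) :
    ∃ u u' aH : ℕ, u ≤ n ∧ u' ≤ n ∧ aH ≤ n ∧
      (Φ (subgroupSum H)).trace = (Nat.card H : ℂ) * aH ∧
      MemLocalRing M (((Φ ((subgroupSum H * subgroupSum K * subgroupSum H) ^ m)).trace /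
        ((Nat.card H ^ 2 * Nat.card K : ℕ) : ℂ) ^ m - u) / (p : ℂ) ^ J) ∧
      MemLocalRing M (((aH : ℂ) - (Φ ((subgroupSum H * subgroupSum K * subgroupSum H) ^ m)).trace /
        ((Nat.card H ^ 2 * Nat.card K : ℕ) : ℂ) ^ m - u') / (p : ℂ) ^ J) := by
  have hp : p.Prime := hM.1
  obtain ⟨X, hX⟩ : ∃ X, X = (subgroupSum H * subgroupSum K * subgroupSum H) ^ m := ⟨_, rfl⟩
  obtain ⟨c, hc⟩ : ∃ c : ℕ, c = Nat.card H ^ 2 * Nat.card K := ⟨_, rfl⟩
  rw [← hX, ← hc] at hD ⊢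
  obtain ⟨hSX, hXS⟩ := subgroupSum_mul_pow hA H K m hm
  rw [← hX] at hSX hXS
  obtain ⟨-, -, -, -, h5, -, -⟩ := hA G
  have hH0 : Nat.card H ≠ 0 := Nat.card_pos.ne'
  have hK0 : Nat.card K ≠ 0 := Nat.card_pos.ne'
  have hc0 : c ≠ 0 := by rw [hc]; positivity
  have hpc : ¬ p ∣ c := by
    rw [hc]
    intro h
    rcases (Nat.Prime.dvd_mul hp).mp h with h | h
    · exact hH (hp.dvd_of_dvd_pow h)
    · exact hK h
  have hpcm : ¬ p ∣ c ^ m := fun h => hpc (hp.dvd_of_dvd_pow h)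
  have hhC : (Nat.card H : ℂ) ≠ 0 := by exact_mod_cast hH0
  have hcC : (c : ℂ) ≠ 0 := by exact_mod_cast hc0
  have hcmC : (c : ℂ) ^ m ≠ 0 := pow_ne_zero _ hcC
  -- the matrices
  obtain ⟨γ, hγ⟩ : ∃ γ : ℂ, γ = ((c : ℂ) ^ m)⁻¹ := ⟨_, rfl⟩
  have hγc : γ * (c : ℂ) ^ m = 1 := by rw [hγ]; exact inv_mul_cancel₀ hcmC
  have key1 : Φ X * Φ X - ((c : ℂ) ^ m) • Φ X = ((p : ℂ) ^ J) • Φ D := by
    have h := congrArg Φ hD
    rw [map_sub, map_mul, map_zsmul_cast, map_zsmul_cast] at h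
    push_cast at h
    exact h
  have hW : (γ • Φ X) * (γ • Φ X) - γ • Φ X = ((p : ℂ) ^ J) • ((γ ^ 2) • Φ D) := by
    rw [smul_comm, ← key1, smul_sub, Matrix.smul_mul, Matrix.mul_smul, smul_smul, smul_smul]
    congr 1
    · rw [pow_two]
    · congr 1
      rw [pow_two, mul_assoc, hγc, mul_one]
  have int1 : IsIntegral ℤ (((c ^ m : ℕ) : ℂ) • (γ • Φ X)) := by
    rw [smul_smul]
    push_cast
    rw [mul_comm, hγc, one_smul]
    exact hΦ X
  have int2 : IsIntegral ℤ ((((c ^ m : ℕ) : ℂ) ^ 2) • ((γ ^ 2) • Φ D)) := by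
    rw [smul_smul]
    push_cast
    rw [← mul_pow, mul_comm, hγc, one_pow, one_smul]
    exact hΦ D
  obtain ⟨u, hu, hu'⟩ := hT p M hM n (γ • Φ X) ((γ ^ 2) • Φ D) (c ^ m) J hpcm hJ int1 int2 hW
  have htrW : (γ • Φ X).trace = (Φ X).trace / (c : ℂ) ^ m := by
    rw [Matrix.trace_smul, smul_eq_mul, hγ, div_eq_inv_mul]
  -- the idempotent of `H`
  have hSS : Φ (subgroupSum H) * Φ (subgroupSum H) = (Nat.card H : ℂ) • Φ (subgroupSum H) := by
    rw [← map_mul, h5 H, map_zsmul_cast]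
    push_cast
    rfl
  have hAA : ((Nat.card H : ℂ)⁻¹ • Φ (subgroupSum H)) * ((Nat.card H : ℂ)⁻¹ • Φ (subgroupSum H)) =
      (Nat.card H : ℂ)⁻¹ • Φ (subgroupSum H) := by
    rw [Matrix.smul_mul, Matrix.mul_smul, hSS, smul_smul, smul_smul]
    congr 1
    field_simp
  obtain ⟨aH, haH, htrA⟩ := hT0 n _ hAA
  have htrS : (Φ (subgroupSum H)).trace = (Nat.card H : ℂ) * aH := by
    rw [Matrix.trace_smul, smul_eq_mul] at htrA
    rw [← htrA]
    field_simp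
  have hAW : ((Nat.card H : ℂ)⁻¹ • Φ (subgroupSum H)) * (γ • Φ X) = γ • Φ X := by
    rw [Matrix.smul_mul, Matrix.mul_smul, ← map_mul, hSX, map_zsmul_cast, smul_smul, smul_smul]
    congr 1
    push_cast
    field_simp
  have hWA : (γ • Φ X) * ((Nat.card H : ℂ)⁻¹ • Φ (subgroupSum H)) = γ • Φ X := by
    rw [Matrix.smul_mul, Matrix.mul_smul, ← map_mul, hXS, map_zsmul_cast, smul_smul, smul_smul]
    congr 1
    push_cast
    field_simp
  have hW' : ((Nat.card H : ℂ)⁻¹ • Φ (subgroupSum H) - γ • Φ X) *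
      ((Nat.card H : ℂ)⁻¹ • Φ (subgroupSum H) - γ • Φ X) -
      ((Nat.card H : ℂ)⁻¹ • Φ (subgroupSum H) - γ • Φ X) = ((p : ℂ) ^ J) • ((γ ^ 2) • Φ D) := by
    rw [← hW, sub_mul, mul_sub, mul_sub, hAA, hAW, hWA]
    abel
  have hpc' : ¬ p ∣ Nat.card H * c ^ m := by
    intro h
    rcases (Nat.Prime.dvd_mul hp).mp h with h | h
    · exact hH h
    · exact hpcm h
  have int1' : IsIntegral ℤ (((Nat.card H * c ^ m : ℕ) : ℂ) •
      ((Nat.card H : ℂ)⁻¹ • Φ (subgroupSum H) - γ • Φ X)) := by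
    have : ((Nat.card H * c ^ m : ℕ) : ℂ) •
        ((Nat.card H : ℂ)⁻¹ • Φ (subgroupSum H) - γ • Φ X) =
        Φ (((c : ℤ) ^ m) • subgroupSum H - (Nat.card H : ℤ) • X) := by
      rw [map_sub, map_zsmul_cast, map_zsmul_cast, smul_sub, smul_smul, smul_smul]
      push_cast
      congr 2
      · field_simp
      · rw [mul_assoc, mul_comm ((c : ℂ) ^ m) γ, hγc, mul_one]
    rw [this]
    exact hΦ _
  have int2' : IsIntegral ℤ ((((Nat.card H * c ^ m : ℕ) : ℂ) ^ 2) • ((γ ^ 2) • Φ D)) := by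
    have : (((Nat.card H * c ^ m : ℕ) : ℂ) ^ 2) • ((γ ^ 2) • Φ D) =
        Φ (((Nat.card H : ℤ) ^ 2) • D) := by
      rw [map_zsmul_cast, smul_smul]
      push_cast
      congr 1
      rw [← mul_pow, mul_assoc, mul_comm ((c : ℂ) ^ m) γ, hγc, mul_one]
    rw [this]
    exact hΦ _
  obtain ⟨u', hu1, hu1'⟩ := hT p M hM n _ ((γ ^ 2) • Φ D) (Nat.card H * c ^ m) J hpc' hJ int1' int2' hW'
  refine ⟨u, u', aH, hu, hu1, haH, htrS, ?_, ?_⟩
  · rw [← htrW]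
    exact hu'
  · rw [← htrW, ← htrA, ← Matrix.trace_sub]
    exact hu1'

end Cfsg.Agent.Lib.Helper44.Frob3
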