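import Mathlib
import Cfsg.Agent.Lib.Helper44.Frob3.Defs
import Cfsg.Agent.Lib.Helper44.Frob3.Side
import Cfsg.Agent.Lib.Helper44.Frob3.Glue
import Cfsg.Agent.Lib.Helper16.LocalRing
import Cfsg.Agent.Lib.Helper76.PRegChar
import Cfsg.Agent.Lib.Helper79.ClassMult
import Cfsg.Agent.Lib.Helper81.CharCore
import Cfsg.Agent.S0165

/-!
# S4427 assembly, part 3: the main argument
-/

set_option autoImplicit false

namespace Cfsg.Agent.Lib.Helper44.Frob3

universe u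

open Cfsg Cfsg.Agent.Lib.Helper16

/-- An integer of absolute value `< p^J` which is divisible by `p^J` in the local ring is `0`. -/
theorem int_eq_zero_of_local {p : ℕ} {M : Ideal Cfsg.AlgInt} (hM : Cfsg.IsPModular p M) (J : ℕ)
    (z : ℤ) (hz : |z| < (p : ℤ) ^ J) (h : MemLocalRing M ((z : ℂ) / (p : ℂ) ^ J)) : z = 0 := by
  have hp : p.Prime := hM.1
  have hp0 : (p : ℂ) ≠ 0 := by exact_mod_cast hp.ne_zero
  obtain ⟨w, hw⟩ := Cfsg.Agent.Lib.Helper76.int_of_memLocalRing_div_pow hM J z h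
  have h1 : (z : ℂ) = ((w * (p : ℤ) ^ J : ℤ) : ℂ) := by
    push_cast
    rw [hw]
    field_simp
  have h2 : z = w * (p : ℤ) ^ J := by exact_mod_cast h1
  by_contra hz0
  have hw0 : w ≠ 0 := by
    rintro rfl
    simp at h2
    exact hz0 h2
  have hpos : (0 : ℤ) < (p : ℤ) ^ J := pow_pos (by exact_mod_cast hp.pos) J
  have : (p : ℤ) ^ J ≤ |z| := by
    rw [h2, abs_mul, abs_of_pos hpos]
    have : 1 ≤ |w| := Int.one_le_abs hw0
    nlinarith
  omega

theorem ev_pow_sum (hA : PkgAlg.{u}) (hX : PkgExpand.{u}) {G : Type u} [Group G] [Finite G]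
    (ι : Type u) [Fintype ι] (σ : ι → G) (m : ℕ) (φ : G → ℂ) :
    ev φ ((∑ i : ι, MonoidAlgebra.of ℤ G (σ i)) ^ m) =
      ∑ f : Fin m → ι, φ ((List.ofFn fun i => σ (f i)).prod) := by
  obtain ⟨-, -, h3, -, -, -, -⟩ := hA G
  rw [hX G ι σ m, ev_sum hA]
  exact Finset.sum_congr rfl fun f _ => h3 φ _

theorem sum_words_indicator {G : Type u} [Group G] (ι : Type u) [Fintype ι] (σ : ι → G) (m : ℕ)
    (p : ℕ) (c0 : ℂ) :
    ∑ f : Fin m → ι, (if p ∣ orderOf (List.ofFn fun i => σ (f i)).prod then (0 : ℂ) else c0) =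
      c0 * ((Fintype.card ι : ℂ) ^ m -
        (Nat.card {f : Fin m → ι // p ∣ orderOf (List.ofFn fun i => σ (f i)).prod} : ℂ)) := by
  classical
  have h1 : ∀ f : Fin m → ι,
      (if p ∣ orderOf (List.ofFn fun i => σ (f i)).prod then (0 : ℂ) else c0) =
        c0 - (if p ∣ orderOf (List.ofFn fun i => σ (f i)).prod then c0 else 0) := by
    intro f
    split_ifs <;> simp
  rw [Finset.sum_congr rfl fun f _ => h1 f, Finset.sum_sub_distrib, Finset.sum_const,
    ← Finset.sum_filter, Finset.sum_const, Nat.card_eq_fintype_card, Fintype.card_subtype,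
    Finset.card_univ, Fintype.card_fun, Fintype.card_fin]
  simp only [nsmul_eq_mul]
  push_cast
  ring

/-- The analysis of one irreducible character. -/
theorem perChar (hT : PkgTrace) (hT0 : PkgTrace0) (hR : PkgRep.{u}) (hA : PkgAlg.{u})
    {G : Type u} [Group G] [Finite G] {p : ℕ} {M : Ideal Cfsg.AlgInt} (hM : Cfsg.IsPModular p M)
    (Q R : Subgroup G) (hQ : ¬ p ∣ Nat.card Q) (hR' : ¬ p ∣ Nat.card R) (J m : ℕ) (hJ : 1 ≤ J)
    (hJ2 : 2 * Nat.card G < p ^ J) (hm : 0 < m) (D1 D2 : MonoidAlgebra ℤ G)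
    (hD1 : (subgroupSum Q * subgroupSum R * subgroupSum Q) ^ m *
          (subgroupSum Q * subgroupSum R * subgroupSum Q) ^ m -
        ((Nat.card Q ^ 2 * Nat.card R : ℕ) : ℤ) ^ m •
          (subgroupSum Q * subgroupSum R * subgroupSum Q) ^ m = ((p : ℤ) ^ J) • D1)
    (hD2 : (subgroupSum R * subgroupSum Q * subgroupSum R) ^ m *
          (subgroupSum R * subgroupSum Q * subgroupSum R) ^ m -
        ((Nat.card R ^ 2 * Nat.card Q : ℕ) : ℤ) ^ m •
          (subgroupSum R * subgroupSum Q * subgroupSum R) ^ m = ((p : ℤ) ^ J) • D2)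
    (χ : Cfsg.IrrCharacter G) :
    ∃ u aQ aR : ℕ, u ≤ aQ ∧ u ≤ aR ∧
      ev (χ : G → ℂ) (subgroupSum Q) = (Nat.card Q : ℂ) * aQ ∧
      ev (χ : G → ℂ) (subgroupSum R) = (Nat.card R : ℂ) * aR ∧
      MemLocalRing M ((ev (χ : G → ℂ) ((subgroupSum Q * subgroupSum R * subgroupSum Q) ^ m) /
        ((Nat.card Q ^ 2 * Nat.card R : ℕ) : ℂ) ^ m - u) / (p : ℂ) ^ J) := by
  have hMp := isPrime_of_isPModular hM
  obtain ⟨nn, Φ, hΦ, htr⟩ := hR G χ
  obtain ⟨-, -, h3, -, -, -, -⟩ := hA G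
  have hnn : nn ≤ Nat.card G := by
    have h1 := htr 1
    rw [map_one, Matrix.trace_one, Fintype.card_fin, ← map_one (MonoidAlgebra.of ℤ G), h3] at h1
    obtain ⟨hd1, -, hd3⟩ := Cfsg.Agent.Lib.Helper79.irr_charDegree χ.2
    rw [hd1] at h1
    have h2 : nn = Cfsg.charDegree (χ : G → ℂ) := by exact_mod_cast h1
    rw [h2]
    exact Nat.le_of_dvd Nat.card_pos hd3
  obtain ⟨u1, u1', aQ, hu1, hu1', haQ, htrQ, hloc1, hloc1'⟩ :=
    side hT hT0 hA hM Q R hQ hR' J m hJ hm D1 hD1 nn Φ hΦ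
  obtain ⟨u2, u2', aR, hu2, hu2', haR, htrR, hloc2, hloc2'⟩ :=
    side hT hT0 hA hM R Q hR' hQ J m hJ hm D2 hD2 nn Φ hΦ
  rw [htr] at htrQ htrR hloc1 hloc1' hloc2 hloc2'
  have hsw := ev_swap hA (χ : G → ℂ) (Cfsg.Agent.Lib.Helper81.irr_mul_comm χ) Q R m hm
  have hQ0 : (Nat.card Q : ℂ) ≠ 0 := by
    have : Nat.card Q ≠ 0 := Nat.card_pos.ne'
    exact_mod_cast this
  have hR0 : (Nat.card R : ℂ) ≠ 0 := by
    have : Nat.card R ≠ 0 := Nat.card_pos.ne'
    exact_mod_cast this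
  have hτ : ev (χ : G → ℂ) ((subgroupSum Q * subgroupSum R * subgroupSum Q) ^ m) /
        ((Nat.card Q ^ 2 * Nat.card R : ℕ) : ℂ) ^ m =
      ev (χ : G → ℂ) ((subgroupSum R * subgroupSum Q * subgroupSum R) ^ m) /
        ((Nat.card R ^ 2 * Nat.card Q : ℕ) : ℂ) ^ m := by
    push_cast
    rw [div_eq_div_iff (by positivity) (by positivity)]
    simp only [mul_pow]
    linear_combination ((Nat.card R : ℂ) ^ m * (Nat.card Q : ℂ) ^ m) * hsw
  rw [← hτ] at hloc2 hloc2'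
  have hpJ : (2 * Nat.card G : ℤ) < (p : ℤ) ^ J := by exact_mod_cast hJ2
  have hnnZ : (nn : ℤ) ≤ Nat.card G := by exact_mod_cast hnn
  have e12 : (u1 : ℤ) - u2 = 0 := by
    apply int_eq_zero_of_local hM J
    · rw [abs_lt]
      constructor <;> omega
    · have := memLocalRing_sub hMp hloc2 hloc1
      convert this using 1
      push_cast
      ring
  have eQ : (aQ : ℤ) - u1 - u1' = 0 := by
    apply int_eq_zero_of_local hM J
    · rw [abs_lt]
      constructor <;> omega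
    · have := memLocalRing_add hMp hloc1' hloc1
      convert this using 1
      push_cast
      ring
  have eR : (aR : ℤ) - u2 - u2' = 0 := by
    apply int_eq_zero_of_local hM J
    · rw [abs_lt]
      constructor <;> omega
    · have := memLocalRing_add hMp hloc2' hloc2
      convert this using 1
      push_cast
      ring
  exact ⟨u1, aQ, aR, by omega, by omega, htrQ, htrR, hloc1⟩

/-- The core: two `p'`-subgroups of coprime orders with `|Q| |R| = |G|_{p'}` and the Frobenius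
hypothesis force the `p`-regular elements to form a normal subgroup. -/
theorem core (hW : PkgWords.{u}) (hX : PkgExpand.{u}) (hI : PkgIdem.{u}) (hT : PkgTrace)
    (hT0 : PkgTrace0) (hR : PkgRep.{u}) (hA : PkgAlg.{u}) (hO : PkgOrth.{u}) (hP : PkgPsi.{u})
    (hF : PkgFinish.{u}) {G : Type u} [Group G] [Finite G] (p : ℕ) (hp : p.Prime)
    (Q R : Subgroup G) (hQR : (Nat.card Q).Coprime (Nat.card R))
    (hcard : Nat.card Q * Nat.card R * p ^ (Nat.card G).factorization p = Nat.card G)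
    (hcount : Nat.card {g : G // ¬ p ∣ orderOf g} * p ^ (Nat.card G).factorization p =
      Nat.card G) :
    ∃ N : Subgroup G, N.Normal ∧ ∀ g : G, g ∈ N ↔ ¬ p ∣ orderOf g := by
  classical
  have : Finite (Cfsg.IrrCharacter G) := Cfsg.Agent.Lib.Helper81.irr_finite G
  have := Fintype.ofFinite (Cfsg.IrrCharacter G)
  obtain ⟨n, hn1, hn2⟩ := hP G p hp hcount
  obtain ⟨a, ha⟩ : ∃ a, a = (Nat.card G).factorization p := ⟨_, rfl⟩
  rw [← ha] at hcard hcount hn1 hn2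
  rw [finsum_eq_sum_of_fintype] at hn2
  have hn1' : ∀ x : G, ∑ χ : Cfsg.IrrCharacter G, (n χ : ℂ) * (χ : G → ℂ) x =
      if p ∣ orderOf x then 0 else ((p ^ a : ℕ) : ℂ) := by
    intro x
    rw [← finsum_eq_sum_of_fintype]
    exact hn1 x
  have hpa0 : ((p ^ a : ℕ) : ℂ) ≠ 0 := by exact_mod_cast (pow_pos hp.pos a).ne'
  suffices h : ∀ χ, 0 ≤ n χ from hF G p hp n _ hpa0 h hn1
  have hG0 : Nat.card G ≠ 0 := Nat.card_pos.ne'
  have hQ : ¬ p ∣ Nat.card Q := by
    intro h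
    have h1 : p ^ (a + 1) ∣ Nat.card G := by
      rw [← hcard, pow_succ]
      obtain ⟨t, ht⟩ := h
      exact ⟨t * Nat.card R, by rw [ht]; ring⟩
    have := (Nat.Prime.pow_dvd_iff_le_factorization hp hG0).mp h1
    omega
  have hR' : ¬ p ∣ Nat.card R := by
    intro h
    have h1 : p ^ (a + 1) ∣ Nat.card G := by
      rw [← hcard, pow_succ]
      obtain ⟨t, ht⟩ := h
      exact ⟨t * Nat.card Q, by rw [ht]; ring⟩
    have := (Nat.Prime.pow_dvd_iff_le_factorization hp hG0).mp h1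
    omega
  have hpaG : p ^ a ≤ Nat.card G := Nat.le_of_dvd Nat.card_pos ⟨Nat.card Q * Nat.card R, by
    rw [← hcard]; ring⟩
  obtain ⟨J, hJ, hJ2⟩ : ∃ J, 1 ≤ J ∧ 2 * Nat.card G < p ^ J :=
    ⟨2 * Nat.card G + 1, by omega, by
      have := Nat.lt_pow_self hp.one_lt (n := 2 * Nat.card G + 1)
      omega⟩
  obtain ⟨M, hMmax, hpM⟩ := Cfsg.Agent.S0165.exists_maximal_ideal_natCast_mem p hp.one_lt
  have hM : Cfsg.IsPModular p M := ⟨hp, hMmax, hpM⟩
  have hMp := isPrime_of_isPModular hM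
  have hpc1 : ¬ p ∣ Nat.card Q ^ 2 * Nat.card R := by
    intro h
    rcases (Nat.Prime.dvd_mul hp).mp h with h | h
    · exact hQ (hp.dvd_of_dvd_pow h)
    · exact hR' h
  have hpc2 : ¬ p ∣ Nat.card R ^ 2 * Nat.card Q := by
    intro h
    rcases (Nat.Prime.dvd_mul hp).mp h with h | h
    · exact hR' (hp.dvd_of_dvd_pow h)
    · exact hQ h
  have hc1 : IsCoprime (((Nat.card Q ^ 2 * Nat.card R : ℕ) : ℤ)) (p : ℤ) :=
    Nat.isCoprime_iff_coprime.mpr ((Nat.Prime.coprime_iff_not_dvd hp).mpr hpc1).symm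
  have hc2 : IsCoprime (((Nat.card R ^ 2 * Nat.card Q : ℕ) : ℤ)) (p : ℤ) :=
    Nat.isCoprime_iff_coprime.mpr ((Nat.Prime.coprime_iff_not_dvd hp).mpr hpc2).symm
  obtain ⟨k1, hk1, hI1⟩ := hI G p hp (subgroupSum Q * subgroupSum R * subgroupSum Q) _ hc1 J
  obtain ⟨k2, hk2, hI2⟩ := hI G p hp (subgroupSum R * subgroupSum Q * subgroupSum R) _ hc2 J
  obtain ⟨m, hm⟩ : ∃ m, m = k1 * (k2 * p ^ (J + a)) := ⟨_, rfl⟩
  have hm' : m = k2 * (k1 * p ^ (J + a)) := by rw [hm]; ring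
  have hppos : 0 < p ^ (J + a) := pow_pos hp.pos _
  have hmpos : 0 < m := by rw [hm]; positivity
  obtain ⟨D1, hD1⟩ := hI1 (k2 * p ^ (J + a)) (by positivity)
  obtain ⟨D2, hD2⟩ := hI2 (k1 * p ^ (J + a)) (by positivity)
  rw [← hm] at hD1
  rw [← hm'] at hD2
  have key := perChar hT hT0 hR hA hM Q R hQ hR' J m hJ hJ2 hmpos D1 D2 hD1 hD2
  choose u aQ aR hu1 hu2 hevQ hevR hloc using key
  -- (i) the norm bound
  have hO' := hO G Q R hQR
  rw [finsum_eq_sum_of_fintype] at hO'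
  have hsumab : ∑ χ : Cfsg.IrrCharacter G, aQ χ * aR χ = p ^ a := by
    have h1 : ((Nat.card Q * Nat.card R * ∑ χ : Cfsg.IrrCharacter G, aQ χ * aR χ : ℕ) : ℂ) =
        ((Nat.card Q * Nat.card R * p ^ a : ℕ) : ℂ) := by
      rw [hcard, ← hO']
      push_cast
      rw [Finset.mul_sum]
      apply Finset.sum_congr rfl
      intro χ _
      rw [hevQ, hevR]
      ring
    have h2 := Nat.cast_injective h1
    have hpos : 0 < Nat.card Q * Nat.card R := Nat.mul_pos Nat.card_pos Nat.card_pos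
    exact Nat.eq_of_mul_eq_mul_left hpos h2
  have hsumu : ∑ χ : Cfsg.IrrCharacter G, (u χ) ^ 2 ≤ p ^ a := by
    rw [← hsumab]
    apply Finset.sum_le_sum
    intro χ _
    rw [pow_two]
    exact Nat.mul_le_mul (hu1 χ) (hu2 χ)
  -- (ii) the words
  obtain ⟨-, -, -, -, -, h6, -⟩ := hA G
  have := Fintype.ofFinite (↥Q × ↥R × ↥Q)
  obtain ⟨σ, hσ⟩ : ∃ σ : ↥Q × ↥R × ↥Q → G, σ = fun i => (i.1 : G) * (i.2.1 : G) * (i.2.2 : G) :=
    ⟨_, rfl⟩
  have hT1 : subgroupSum Q * subgroupSum R * subgroupSum Q =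
      ∑ i : ↥Q × ↥R × ↥Q, MonoidAlgebra.of ℤ G (σ i) := by
    rw [h6 Q R, finsum_eq_sum_of_fintype, hσ]
  have hcardι : Fintype.card (↥Q × ↥R × ↥Q) = Nat.card Q ^ 2 * Nat.card R := by
    rw [← Nat.card_eq_fintype_card, Nat.card_prod, Nat.card_prod]
    ring
  have hXc : p ^ (J + 1) ∣
      Nat.card {f : Fin m → ↥Q × ↥R × ↥Q // p ∣ orderOf (List.ofFn fun i => σ (f i)).prod} := by
    have h := hW G p hp (↥Q × ↥R × ↥Q) σ (J + a) m ⟨k1 * k2, by rw [hm]; ring⟩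
    rw [← ha] at h
    have e : J + a + 1 - a = J + 1 := by omega
    rw [e] at h
    exact h
  obtain ⟨Kc, hKc⟩ := hXc
  have hsumev : ∑ χ : Cfsg.IrrCharacter G, (n χ : ℂ) *
      ev (χ : G → ℂ) ((subgroupSum Q * subgroupSum R * subgroupSum Q) ^ m) =
      ((p ^ a : ℕ) : ℂ) * (((Nat.card Q ^ 2 * Nat.card R : ℕ) : ℂ) ^ m -
        ((p ^ (J + 1) * Kc : ℕ) : ℂ)) := by
    rw [hT1]
    simp_rw [ev_pow_sum hA hX (↥Q × ↥R × ↥Q) σ m, Finset.mul_sum]
    rw [Finset.sum_comm]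
    rw [Finset.sum_congr rfl fun f _ => hn1' _, sum_words_indicator, hcardι, hKc]
  have hpc1m : ¬ p ∣ (Nat.card Q ^ 2 * Nat.card R) ^ m := fun h => hpc1 (hp.dvd_of_dvd_pow h)
  have hcC : (((Nat.card Q ^ 2 * Nat.card R : ℕ) : ℂ)) ^ m ≠ 0 := by
    have : (Nat.card Q ^ 2 * Nat.card R) ^ m ≠ 0 := fun h => hpc1m (h ▸ dvd_zero p)
    exact_mod_cast this
  have hpC : (p : ℂ) ≠ 0 := by exact_mod_cast hp.ne_zero
  have hn2' : ∑ χ : Cfsg.IrrCharacter G, n χ ^ 2 = ((p ^ a : ℕ) : ℤ) := hn2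
  have hsumuZ : ∑ χ : Cfsg.IrrCharacter G, (u χ : ℤ) ^ 2 ≤ ((p ^ a : ℕ) : ℤ) := by
    exact_mod_cast hsumu
  have h_up : 2 * ∑ χ : Cfsg.IrrCharacter G, n χ * (u χ : ℤ) ≤
      ∑ χ : Cfsg.IrrCharacter G, n χ ^ 2 + ∑ χ : Cfsg.IrrCharacter G, (u χ : ℤ) ^ 2 := by
    rw [Finset.mul_sum, ← Finset.sum_add_distrib]
    apply Finset.sum_le_sum
    intro χ _
    nlinarith [sq_nonneg (n χ - (u χ : ℤ))]
  have h_lo : -(∑ χ : Cfsg.IrrCharacter G, n χ ^ 2 + ∑ χ : Cfsg.IrrCharacter G, (u χ : ℤ) ^ 2) ≤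
      2 * ∑ χ : Cfsg.IrrCharacter G, n χ * (u χ : ℤ) := by
    rw [Finset.mul_sum, ← Finset.sum_add_distrib, ← Finset.sum_neg_distrib]
    apply Finset.sum_le_sum
    intro χ _
    nlinarith [sq_nonneg (n χ + (u χ : ℤ))]
  have hZ : (∑ χ : Cfsg.IrrCharacter G, n χ * (u χ : ℤ)) - ((p ^ a : ℕ) : ℤ) = 0 := by
    apply int_eq_zero_of_local hM J
    · have hpJ : (2 * Nat.card G : ℤ) < (p : ℤ) ^ J := by exact_mod_cast hJ2
      have hpaGZ : ((p ^ a : ℕ) : ℤ) ≤ Nat.card G := by exact_mod_cast hpaG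
      have hpa_nonneg : (0 : ℤ) ≤ ((p ^ a : ℕ) : ℤ) := by positivity
      rw [abs_lt]
      constructor <;> omega
    · have hmem1 : MemLocalRing M (∑ χ : Cfsg.IrrCharacter G, (n χ : ℂ) *
          (-((ev (χ : G → ℂ) ((subgroupSum Q * subgroupSum R * subgroupSum Q) ^ m) /
            ((Nat.card Q ^ 2 * Nat.card R : ℕ) : ℂ) ^ m - u χ) / (p : ℂ) ^ J))) :=
        memLocalRing_sum hMp _ _ fun χ _ =>
          memLocalRing_mul hMp (memLocalRing_intCast hMp _) (memLocalRing_neg (hloc χ))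
      have hmem2 : MemLocalRing M (((p ^ a * p * Kc : ℕ) : ℂ) *
          (((Nat.card Q ^ 2 * Nat.card R) ^ m : ℕ) : ℂ)⁻¹) :=
        memLocalRing_mul hMp (memLocalRing_natCast hMp _)
          (memLocalRing_inv (memLocalRing_natCast hMp _)
            (by rw [memLocalIdeal_natCast_iff hM]; exact hpc1m))
      have hmem := memLocalRing_sub hMp hmem1 hmem2
      convert hmem using 1
      have e1 : ∑ χ : Cfsg.IrrCharacter G, (n χ : ℂ) *
          (-((ev (χ : G → ℂ) ((subgroupSum Q * subgroupSum R * subgroupSum Q) ^ m) /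
            ((Nat.card Q ^ 2 * Nat.card R : ℕ) : ℂ) ^ m - u χ) / (p : ℂ) ^ J)) =
          (∑ χ : Cfsg.IrrCharacter G, (n χ : ℂ) * (u χ : ℂ)) / (p : ℂ) ^ J -
          (∑ χ : Cfsg.IrrCharacter G, (n χ : ℂ) *
            ev (χ : G → ℂ) ((subgroupSum Q * subgroupSum R * subgroupSum Q) ^ m)) /
            (((Nat.card Q ^ 2 * Nat.card R : ℕ) : ℂ) ^ m * (p : ℂ) ^ J) := by
        rw [Finset.sum_div, Finset.sum_div, ← Finset.sum_sub_distrib]
        apply Finset.sum_congr rfl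
        intro χ _
        field_simp
        ring
      rw [e1, hsumev]
      have hQ0C : (Nat.card Q : ℂ) ≠ 0 := by
        have : Nat.card Q ≠ 0 := Nat.card_pos.ne'
        exact_mod_cast this
      have hR0C : (Nat.card R : ℂ) ≠ 0 := by
        have : Nat.card R ≠ 0 := Nat.card_pos.ne'
        exact_mod_cast this
      push_cast
      field_simp
      ring
  -- (iii) conclusion
  have hsq : ∑ χ : Cfsg.IrrCharacter G, (n χ - (u χ : ℤ)) ^ 2 ≤ 0 := by
    have e : ∑ χ : Cfsg.IrrCharacter G, (n χ - (u χ : ℤ)) ^ 2 =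
        ∑ χ : Cfsg.IrrCharacter G, n χ ^ 2 - 2 * ∑ χ : Cfsg.IrrCharacter G, n χ * (u χ : ℤ) +
          ∑ χ : Cfsg.IrrCharacter G, (u χ : ℤ) ^ 2 := by
      rw [Finset.mul_sum, ← Finset.sum_sub_distrib, ← Finset.sum_add_distrib]
      apply Finset.sum_congr rfl
      intro χ _
      ring
    rw [e]
    omega
  have hsq0 : ∑ χ : Cfsg.IrrCharacter G, (n χ - (u χ : ℤ)) ^ 2 = 0 :=
    le_antisymm hsq (Finset.sum_nonneg fun χ _ => sq_nonneg _)
  intro χ
  have h1 := (Finset.sum_eq_zero_iff_of_nonneg fun χ _ => sq_nonneg (n χ - (u χ : ℤ))).mp hsq0 χ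
    (Finset.mem_univ χ)
  have h2 : n χ - (u χ : ℤ) = 0 := by simpa using h1
  have h3 : n χ = (u χ : ℤ) := by omega
  rw [h3]
  positivity

/-- **S4427 from the packages.** -/
theorem s4427_of (hW : PkgWords.{u}) (hX : PkgExpand.{u}) (hI : PkgIdem.{u}) (hT : PkgTrace)
    (hT0 : PkgTrace0) (hR : PkgRep.{u}) (hA : PkgAlg.{u}) (hO : PkgOrth.{u}) (hP : PkgPsi.{u})
    (hF : PkgFinish.{u}) {G : Type u} [Group G] [Finite G] (p q r a b c : ℕ) (hp : p.Prime)
    (hq : q.Prime) (hr : r.Prime) (hpq : p ≠ q) (hpr : p ≠ r) (hqr : q ≠ r)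
    (hG : Nat.card G = p ^ a * q ^ b * r ^ c)
    (hcount : Nat.card {g : G // ¬ p ∣ orderOf g} = q ^ b * r ^ c) :
    ∃ N : Subgroup G, N.Normal ∧ Nat.card N = q ^ b * r ^ c := by
  haveI : Fact q.Prime := ⟨hq⟩
  haveI : Fact r.Prime := ⟨hr⟩
  have hpa : p ^ a ≠ 0 := (pow_pos hp.pos a).ne'
  have hqb : q ^ b ≠ 0 := (pow_pos hq.pos b).ne'
  have hrc : r ^ c ≠ 0 := (pow_pos hr.pos c).ne'
  have hfp : (Nat.card G).factorization p = a := by
    rw [hG, Nat.factorization_mul (Nat.mul_ne_zero hpa hqb) hrc, Nat.factorization_mul hpa hqb,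
      Nat.factorization_pow, Nat.factorization_pow, Nat.factorization_pow, hp.factorization,
      hq.factorization, hr.factorization]
    simp [Finsupp.single_apply, hpq, hpr, hpq.symm, hpr.symm]
  have hfq : (Nat.card G).factorization q = b := by
    rw [hG, Nat.factorization_mul (Nat.mul_ne_zero hpa hqb) hrc, Nat.factorization_mul hpa hqb,
      Nat.factorization_pow, Nat.factorization_pow, Nat.factorization_pow, hp.factorization,
      hq.factorization, hr.factorization]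
    simp [Finsupp.single_apply, hpq, hqr, hpq.symm, hqr.symm]
  have hfr : (Nat.card G).factorization r = c := by
    rw [hG, Nat.factorization_mul (Nat.mul_ne_zero hpa hqb) hrc, Nat.factorization_mul hpa hqb,
      Nat.factorization_pow, Nat.factorization_pow, Nat.factorization_pow, hp.factorization,
      hq.factorization, hr.factorization]
    simp [Finsupp.single_apply, hpr, hqr, hpr.symm, hqr.symm]
  obtain ⟨Q⟩ : Nonempty (Sylow q G) := inferInstance
  obtain ⟨R⟩ : Nonempty (Sylow r G) := inferInstance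
  have hQc : Nat.card (Q : Subgroup G) = q ^ b := by
    rw [Sylow.card_eq_multiplicity, hfq]
  have hRc : Nat.card (R : Subgroup G) = r ^ c := by
    rw [Sylow.card_eq_multiplicity, hfr]
  obtain ⟨N, hN, hmem⟩ := core hW hX hI hT hT0 hR hA hO hP hF p hp (Q : Subgroup G)
    (R : Subgroup G)
    (by rw [hQc, hRc]; exact Nat.Coprime.pow _ _ ((Nat.coprime_primes hq hr).mpr hqr))
    (by rw [hQc, hRc, hfp, hG]; ring)
    (by rw [hcount, hfp, hG]; ring)
  refine ⟨N, hN, ?_⟩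
  rw [← hcount]
  exact Nat.card_congr (Equiv.subtypeEquivRight hmem)

end Cfsg.Agent.Lib.Helper44.Frob3
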